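import Cfsg.Agent.A8R.Def
import Cfsg.Agent.S0058

set_option autoImplicit false

namespace Cfsg.Agent.A8R
open Subgroup

universe u

theorem genb_key {C : Type u} [Group C] [Finite C] (z : C) (V : Subgroup C) (hz : orderOf z = 3)
    (hV : (Nat.card V).Coprime 3) (hVc : ∀ v ∈ V, ∀ c : C, c * v = v * c)
    (h1 : ∀ c : C, Commute c z → c ∈ V ⊔ zpowers z) (h2 : ∀ c : C, c * z * c⁻¹ ≠ z⁻¹) :
    ∃ K : Subgroup C, (Nat.card K).Coprime 3 ∧ K ⊔ zpowers z = ⊤ ∧
      ∀ g : C, g ∈ K ↔ (orderOf g).Coprime 3 := by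
  classical
  haveI : Fact (Nat.Prime 3) := ⟨Nat.prime_three⟩
  have hz3 : z ^ 3 = 1 := hz ▸ pow_orderOf_eq_one z
  have hz1 : z ≠ 1 := fun e => by rw [e, orderOf_one] at hz; omega
  have hcard : Nat.card (zpowers z) = 3 := by rw [Nat.card_zpowers, hz]
  have hzp : IsPGroup 3 (zpowers z) := IsPGroup.of_card (n := 1) (by rw [hcard]; rfl)
  haveI : V.Normal := ⟨fun v hv g => by rw [hVc v hv g, mul_inv_cancel_right]; exact hv⟩
  -- elements normalising `⟨z⟩` centralise `z`
  have hn : ∀ g ∈ normalizer (zpowers z : Set C), Commute g z := by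
    intro g hg
    have m : g * z * g⁻¹ ∈ zpowers z := (mem_normalizer_iff.1 hg z).1 (mem_zpowers z)
    rw [mem_zpowers_iff_mem_range_orderOf, hz, Finset.mem_image] at m
    obtain ⟨k, hk, e⟩ := m
    rw [Finset.mem_range] at hk
    interval_cases k
    · exfalso
      apply hz1
      have : g * z * g⁻¹ = 1 := by simpa using e.symm
      simpa using this
    · have : g * z * g⁻¹ = z := by simpa using e.symm
      exact mul_inv_eq_iff_eq_mul.1 this
    · exfalso
      apply h2 g
      rw [← e]
      exact eq_inv_of_mul_eq_one_left (by rw [← pow_succ, hz3])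
  -- a `3`-element commuting with `z` lies in `⟨z⟩`
  have h3 : ∀ g : C, Commute g z → (∃ k, g ^ 3 ^ k = 1) → g ∈ zpowers z := by
    rintro g hg ⟨k, hk⟩
    obtain ⟨v, hv, y, hy, rfl⟩ := mem_sup_of_normal_left.1 (h1 g hg)
    have c : Commute v y := (hVc v hv y).symm
    have y3 : y ^ 3 = 1 := by
      obtain ⟨n, rfl⟩ := hy
      simp only
      rw [← zpow_natCast, ← zpow_mul, mul_comm, zpow_mul, zpow_natCast, hz3, one_zpow]
    have e1 : v ^ 3 ^ (k + 1) = 1 := by
      have : (v * y) ^ 3 ^ (k + 1) = 1 := by rw [pow_succ, pow_mul, hk, one_pow]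
      rwa [c.mul_pow, pow_succ' 3 k, pow_mul y, y3, one_pow, mul_one, ← pow_succ' 3 k] at this
    have e2 : orderOf v ∣ Nat.card V := Subgroup.orderOf_dvd_natCard V hv
    have e3 : orderOf v = 1 := Nat.eq_one_of_dvd_coprimes (hV.pow_right (k + 1)) e2 (orderOf_dvd_of_pow_eq_one e1)
    rw [orderOf_eq_one_iff.1 e3, one_mul]
    exact hy
  obtain ⟨P, hP⟩ := hzp.exists_le_sylow
  have hPz : (P : Subgroup C) = zpowers z := by
    by_contra hne
    have hlt : (zpowers z).subgroupOf (P : Subgroup C) < ⊤ := lt_top_iff_ne_top.2 fun e =>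
      hne (le_antisymm (subgroupOf_eq_top.1 e) hP)
    haveI := P.2.isNilpotent
    have := Group.normalizerCondition_of_isNilpotent (G := (P : Subgroup C)) _ hlt
    obtain ⟨g, hg, hg'⟩ := SetLike.exists_of_lt this
    refine hg' (mem_subgroupOf.2 (h3 g (hn _ ?_) ?_))
    · have := le_normalizer_map (H := (zpowers z).subgroupOf (P : Subgroup C)) (P : Subgroup C).subtype
        ⟨g, hg, rfl⟩
      rwa [map_subgroupOf_eq_of_le hP] at this
    · obtain ⟨k, hk⟩ := P.2 g
      exact ⟨k, congrArg Subtype.val hk⟩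
  have hPn : normalizer (P : Set C) ≤ centralizer (P : Set C) := by
    intro g hg
    have e : ((P : Subgroup C) : Set C) = (zpowers z : Set C) := by rw [hPz]
    change g ∈ normalizer ((P : Subgroup C) : Set C) at hg
    change g ∈ centralizer ((P : Subgroup C) : Set C)
    rw [e] at hg ⊢
    rintro _ ⟨n, rfl⟩
    exact ((hn g hg).zpow_right n).eq.symm
  have hc := MonoidHom.ker_transferSylow_isComplement' P hPn
  have hnd := MonoidHom.not_dvd_card_ker_transferSylow P hPn
  set K := (MonoidHom.transferSylow P hPn).ker with hK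
  have hcop : (Nat.card K).Coprime 3 := ((Nat.Prime.coprime_iff_not_dvd Nat.prime_three).2 hnd).symm
  refine ⟨K, hcop, by rw [← hPz]; exact hc.sup_eq_top, fun g => ⟨fun hg =>
    Nat.Coprime.coprime_dvd_left (Subgroup.orderOf_dvd_natCard K hg) hcop, fun hg => ?_⟩⟩
  have hi : K.index = 3 := by rw [hc.symm.index_eq_card, hPz, hcard]
  have m1 : g ^ 3 ∈ K := hi ▸ pow_index_mem K g
  obtain ⟨m, hm⟩ := exists_pow_eq_self_of_coprime (x := g) (n := 3) hg.symm
  rw [← hm]
  exact pow_mem m1 m

theorem genb : GEN.{u} := by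
  intro G _ _ z w V hz hw hzw hwz hVc hV hzc hwn h1 h2
  classical
  set C := centralizer (V : Set G) with hC
  have hVC : V ≤ C := le_centralizer V
  obtain ⟨K, k1, k2, k3⟩ := genb_key (C := C) ⟨z, hzc⟩ (V.subgroupOf C)
    (by rw [← hz]; exact (orderOf_injective C.subtype C.subtype_injective _).symm)
    (by rwa [Nat.card_congr (subgroupOfEquivOfLe hVC).toEquiv])
    (fun v hv c => Subtype.ext (mem_centralizer_iff.1 c.2 v hv).symm)
    (fun c hc => by
      have := h1 c c.2 (congrArg Subtype.val hc.eq)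
      rw [← mem_map_iff_mem C.subtype_injective, Subgroup.map_sup, map_subgroupOf_eq_of_le hVC,
        MonoidHom.map_zpowers]
      exact this)
    (fun c e => h2 c c.2 (congrArg Subtype.val e))
  have mem : ∀ g, g ∈ K.map C.subtype ↔ g ∈ C ∧ (orderOf g).Coprime 3 := fun g =>
    ⟨by
      rintro ⟨x, hx, rfl⟩
      exact ⟨x.2, by rw [orderOf_injective C.subtype C.subtype_injective]; exact (k3 x).1 hx⟩,
    fun h => ⟨⟨g, h.1⟩, (k3 _).2 (by
      rw [← orderOf_injective C.subtype C.subtype_injective]; exact h.2), rfl⟩⟩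
  have nrm : ∀ x ∈ normalizer (V : Set G), x ∈ normalizer ((K.map C.subtype : Subgroup G) : Set G) := by
    have a : ∀ x ∈ normalizer (V : Set G), ∀ g ∈ K.map C.subtype, x * g * x⁻¹ ∈ K.map C.subtype := by
      intro x hx g hg
      rw [mem] at hg ⊢
      refine ⟨fun v hv => ?_, ?_⟩
      · have m : x⁻¹ * v * x⁻¹⁻¹ ∈ V := (mem_normalizer_iff.1 (inv_mem hx) v).1 hv
        have := hg.1 _ m
        calc v * (x * g * x⁻¹) = x * ((x⁻¹ * v * x⁻¹⁻¹) * g) * x⁻¹ := by group
          _ = _ := by rw [this]; group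
      · have := orderOf_injective (MulAut.conj x).toMonoidHom (MulAut.conj x).injective g
        change orderOf (x * g * x⁻¹) = _ at this
        rw [this]; exact hg.2
    intro x hx
    rw [mem_normalizer_iff]
    intro g
    refine ⟨a x hx g, fun h => ?_⟩
    have := a x⁻¹ (inv_mem hx) _ h
    simpa [mul_assoc] using this
  have hcK : (Nat.card (K.map C.subtype)).Coprime 3 := by
    rwa [card_map_of_injective C.subtype_injective]
  have hzn := nrm z (centralizer_le_normalizer _ hzc)
  have hwn' := nrm w hwn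
  refine ⟨K.map C.subtype, fun v hv => (mem v).2 ⟨hVC hv,
    Nat.Coprime.coprime_dvd_left (Subgroup.orderOf_dvd_natCard V hv) hV⟩, map_subtype_le _, hcK,
    hzn, hwn', fun c hc => ?_, fun X hX => ?_⟩
  · have : (⟨c, hc⟩ : C) ∈ K ⊔ zpowers ⟨z, hzc⟩ := k2 ▸ mem_top _
    have := mem_map_of_mem C.subtype this
    rwa [Subgroup.map_sup, MonoidHom.map_zpowers] at this
  · have hz3 : z ^ 3 = 1 := hz ▸ pow_orderOf_eq_one z
    have hw3 : w ^ 3 = 1 := hw ▸ pow_orderOf_eq_one w
    haveI hA : IsMulCommutative (closure ({z, w} : Set G)) := isMulCommutative_closure (by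
      rintro a (rfl | rfl) b (rfl | rfl)
      · rfl
      · exact hzw.eq
      · exact hzw.eq.symm
      · rfl)
    have a3 : ∀ a ∈ closure ({z, w} : Set G), a ^ 3 = 1 := by
      intro a ha
      induction ha using closure_induction with
      | mem x hx => rcases hx with rfl | rfl <;> assumption
      | one => exact one_pow 3
      | mul x y hx hy ex ey =>
        have c : Commute x y := congrArg Subtype.val
          (hA.is_comm.comm (⟨x, hx⟩ : closure ({z, w} : Set G)) ⟨y, hy⟩)
        rw [c.mul_pow, ex, ey, one_mul]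
      | inv x _ ex => rw [inv_pow, ex, inv_one]
    haveI : Fact (Nat.Prime 3) := ⟨Nat.prime_three⟩
    have pA : IsPGroup 3 (closure ({z, w} : Set G)) := fun a => ⟨1, Subtype.ext (by
      simpa using a3 a a.2)⟩
    have hzA : z ∈ closure ({z, w} : Set G) := subset_closure (by simp)
    have hwA : w ∈ closure ({z, w} : Set G) := subset_closure (by simp)
    have ncy : ¬ IsCyclic (closure ({z, w} : Set G)) := fun hcy => by
      have e1 : Nat.card (closure ({z, w} : Set G)) ∣ 3 := by
        rw [← IsCyclic.exponent_eq_card]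
        exact Monoid.exponent_dvd_iff_forall_pow_eq_one.2 fun a => Subtype.ext (by simpa using a3 a a.2)
      have e2 : zpowers z = closure ({z, w} : Set G) := eq_of_le_of_card_ge (zpowers_le.2 hzA) (by
        rw [Nat.card_zpowers, hz]; exact Nat.le_of_dvd (by decide) e1)
      exact hwz (e2 ▸ hwA)
    obtain ⟨n, hn⟩ := pA.exists_card_eq
    have key := Cfsg.Agent.S0058.result (closure ({z, w} : Set G)) (K.map C.subtype) ncy
      ((closure_le _).2 (by rintro a (rfl | rfl) <;> assumption))
      (by rw [hn]; exact (hcK.symm.pow_left n))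
    rw [← key]
    exact iSup₂_le fun d hd => hX d hd.1 hd.2

end Cfsg.Agent.A8R
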